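import Cfsg.Agent.H32.Basic
import Cfsg.Agent.H19.Basic
import Cfsg.Agent.H51.Basic

set_option autoImplicit false
open Pointwise

namespace Cfsg.Agent.H32

open scoped commutatorElement

variable {G : Type*} [Group G] [Finite G]

/-- A finite group with an abelian core-free maximal subgroup is metabelian. -/
theorem derivedSeries_two_of_corefree_abelian_maximal {A : Subgroup G} (hA : IsCoatom A)
    [hAc : IsMulCommutative A] (hcore : A.normalCore = ⊥) : derivedSeries G 2 = ⊥ := by
  classical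
  have acomm : ∀ a ∈ A, ∀ b ∈ A, a * b = b * a := fun a ha b hb =>
    congrArg Subtype.val (hAc.is_comm.comm ⟨a, ha⟩ ⟨b, hb⟩)
  have d2 : derivedSeries G 1 = ⊥ → derivedSeries G 2 = ⊥ := fun h => by
    rw [derivedSeries_succ, h, Subgroup.commutator_bot_left]
  by_cases hA0 : A = ⊥
  · apply d2
    subst hA0
    rw [derivedSeries_one, eq_bot_iff, commutator_def, Subgroup.commutator_le]
    intro x _ y _
    rw [Subgroup.mem_bot, commutatorElement_eq_one_iff_mul_comm]
    by_cases hx : x = 1
    · rw [hx, one_mul, mul_one]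
    have htop : Subgroup.zpowers x = ⊤ :=
      hA.2 _ (bot_lt_iff_ne_bot.mpr fun e => hx (Subgroup.zpowers_eq_bot.mp e))
    obtain ⟨k, rfl⟩ := htop.symm ▸ Subgroup.mem_top y
    exact (Commute.refl x).zpow_right k
  -- normalizers of nontrivial subgroups of `A` are `A`
  have hNX : ∀ X : Subgroup G, X ≤ A → X ≠ ⊥ → Subgroup.normalizer (X : Set G) = A := by
    intro X hX hX0
    have hle : A ≤ Subgroup.normalizer (X : Set G) := fun a ha =>
      Subgroup.centralizer_le_normalizer _
        (Subgroup.mem_centralizer_iff.mpr fun x hx => acomm x (hX hx) a ha)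
    rcases eq_or_lt_of_le hle with h | h
    · exact h.symm
    · exfalso
      have hn : X.Normal := Subgroup.normalizer_eq_top_iff.mp (hA.2 _ h)
      exact hX0 (eq_bot_iff.mpr (hcore ▸ Subgroup.normal_le_normalCore.mpr hX))
  -- a normal complement for each prime divisor of `|A|`
  have hKp : ∀ p : ℕ, p.Prime → p ∣ Nat.card A → ∃ (P : Sylow p G) (K : Subgroup G),
      (P : Subgroup G) ≤ A ∧ (P : Subgroup G) ≠ ⊥ ∧ K.Normal ∧ ¬ p ∣ Nat.card K ∧
        commutator G ≤ K := by
    intro p hp hpA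
    have : Fact p.Prime := ⟨hp⟩
    obtain ⟨P₀⟩ := (inferInstance : Nonempty (Sylow p A))
    let P₁ : Subgroup G := (P₀ : Subgroup A).map A.subtype
    have hP₁A : P₁ ≤ A := Subgroup.map_subtype_le _
    have hP₁p : IsPGroup p P₁ := P₀.isPGroup'.map _
    have hP₁0 : P₁ ≠ ⊥ := by
      rw [Ne, Subgroup.map_eq_bot_iff_of_injective _ A.subtype_injective]
      exact P₀.ne_bot_of_dvd_card hpA
    have hnd : ¬ p ∣ P₁.index := by
      intro hd
      obtain ⟨n, hn⟩ := IsPGroup.iff_card.mp hP₁p
      have hd2 : p ^ (n + 1) ∣ Nat.card G := by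
        rw [← P₁.card_mul_index, hn, pow_succ]
        exact Nat.mul_dvd_mul_left _ hd
      have h1 := Sylow.prime_dvd_card_quotient_normalizer hd2 hn
      change p ∣ P₁.relIndex (Subgroup.normalizer (P₁ : Set G)) at h1
      rw [hNX P₁ hP₁A hP₁0, Subgroup.relIndex, Subgroup.subgroupOf,
        Subgroup.comap_map_eq_self_of_injective A.subtype_injective] at h1
      exact P₀.not_dvd_index h1
    let P : Sylow p G := hP₁p.toSylow hnd
    have hP : Subgroup.normalizer ((P : Subgroup G) : Set G) ≤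
        Subgroup.centralizer ((P : Subgroup G) : Set G) := by
      show Subgroup.normalizer (P₁ : Set G) ≤ Subgroup.centralizer (P₁ : Set G)
      rw [hNX P₁ hP₁A hP₁0]
      exact fun a ha => Subgroup.mem_centralizer_iff.mpr fun x hx => acomm x (hP₁A hx) a ha
    refine ⟨P, (MonoidHom.transferSylow P hP).ker, hP₁A, hP₁0, MonoidHom.normal_ker _,
      MonoidHom.not_dvd_card_ker_transferSylow P hP, ?_⟩
    rw [commutator_def, Subgroup.commutator_le]
    intro x _ y _
    rw [MonoidHom.mem_ker, map_commutatorElement, commutatorElement_eq_one_iff_mul_comm]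
    exact Subtype.ext (acomm _ (hP₁A (MonoidHom.transferSylow P hP x).2) _
      (hP₁A (MonoidHom.transferSylow P hP y).2))
  choose P Kp hPA hP0 hKn hKd hKc using hKp
  let K : Subgroup G := ⨅ (p : ℕ) (hp : p.Prime) (hd : p ∣ Nat.card A), Kp p hp hd
  have hK : K.Normal := Subgroup.normal_iInf_normal fun p => Subgroup.normal_iInf_normal fun hp =>
    Subgroup.normal_iInf_normal fun hd => hKn p hp hd
  have hcK : commutator G ≤ K := le_iInf fun p => le_iInf fun hp => le_iInf fun hd => hKc p hp hd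
  have hcop : (Nat.card K).Coprime (Nat.card A) := by
    refine Nat.coprime_of_dvd fun r hr h1 h2 => hKd r hr h2 (h1.trans ?_)
    exact Subgroup.card_dvd_of_le (iInf_le_of_le r (iInf_le_of_le hr (iInf_le _ h2)))
  have hKA : K ⊓ A = ⊥ := (Subgroup.disjoint_of_coprime_natCard hcop).eq_bot
  have habove : ∀ X : Subgroup G, X ≤ K → X ≠ ⊥ → X ⊔ A = ⊤ := fun X hX hX0 =>
    hA.2 _ (right_lt_sup.mpr fun hle =>
      hX0 (eq_bot_iff.mpr (hKA ▸ le_inf hX hle)))
  by_cases hK0 : K = ⊥
  · exact d2 (by rw [derivedSeries_one, eq_bot_iff, ← hK0]; exact hcK)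
  have hsup := habove K le_rfl hK0
  have hKidx : K.index = Nat.card A :=
    (Subgroup.IsComplement'.symm (Subgroup.isComplement'_of_disjoint_and_mul_eq_univ
      (disjoint_iff.mpr hKA) (by rw [← Subgroup.normal_mul, hsup, Subgroup.coe_top]))).index_eq_card
  -- an `A`-invariant Sylow subgroup of `K`
  obtain ⟨q, hq, hqK⟩ := Nat.exists_prime_and_dvd (n := Nat.card K)
    (fun h => hK0 (Subgroup.card_eq_one.mp h))
  have : Fact q.Prime := ⟨hq⟩
  obtain ⟨Q⟩ := (inferInstance : Nonempty (Sylow q K))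
  let Q' : Subgroup G := (Q : Subgroup K).map K.subtype
  have hQ0 : Q' ≠ ⊥ := by
    rw [Ne, Subgroup.map_eq_bot_iff_of_injective _ K.subtype_injective]
    exact Q.ne_bot_of_dvd_card hqK
  let N := Subgroup.normalizer (Q' : Set G)
  have hNK : N ⊔ K = ⊤ := Sylow.normalizer_sup_eq_top Q
  have hKN : (K.subgroupOf N).index = Nat.card A := by
    show K.relIndex N = _
    rw [← Subgroup.relIndex_sup_left, sup_comm, hNK, Subgroup.relIndex_top_right, hKidx]
  have hKNc : (Nat.card (K.subgroupOf N)).Coprime (K.subgroupOf N).index := by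
    rw [hKN]
    refine hcop.coprime_dvd_left ?_
    rw [← Subgroup.card_map_of_injective (K := K.subgroupOf N) N.subtype_injective,
      Subgroup.subgroupOf_map_subtype]
    exact Subgroup.card_dvd_of_le inf_le_left
  obtain ⟨B₀, hB₀⟩ := Subgroup.exists_right_complement'_of_coprime hKNc
  let B : Subgroup G := B₀.map N.subtype
  have hBc : Nat.card B = Nat.card A := by
    show Nat.card (B₀.map N.subtype : Subgroup G) = _
    rw [Subgroup.card_map_of_injective N.subtype_injective, ← hB₀.symm.index_eq_card, hKN]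
  have hBcomm : ∀ x ∈ B, ∀ y ∈ B, x * y = y * x := by
    intro x hx y hy
    have h1 : ⁅x, y⁆ ∈ K ⊓ B := ⟨hcK (Subgroup.commutator_mem_commutator (Subgroup.mem_top x) (Subgroup.mem_top y)),
      B.mul_mem (B.mul_mem (B.mul_mem hx hy) (B.inv_mem hx)) (B.inv_mem hy)⟩
    rw [(Subgroup.disjoint_of_coprime_natCard (hBc.symm ▸ hcop)).eq_bot, Subgroup.mem_bot] at h1
    exact commutatorElement_eq_one_iff_mul_comm.mp h1
  obtain ⟨p, hp, hpA⟩ := Nat.exists_prime_and_dvd (n := Nat.card A)
    (fun h => hA0 (Subgroup.card_eq_one.mp h))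
  have : Fact p.Prime := ⟨hp⟩
  obtain ⟨R⟩ := (inferInstance : Nonempty (Sylow p B))
  let R' : Subgroup G := (R : Subgroup B).map B.subtype
  obtain ⟨S, hS⟩ := (R.isPGroup'.map B.subtype : IsPGroup p R').exists_le_sylow
  have hpm : ∀ (H : Subgroup G) (T : Sylow p H),
      Nat.card ((T : Subgroup H).map H.subtype) = p ^ (Nat.card H).factorization p := fun H T => by
    rw [Subgroup.card_map_of_injective H.subtype_injective, T.card_eq_multiplicity]
  have hRS : R' = (S : Subgroup G) := by
    refine Subgroup.eq_of_le_of_card_ge hS ?_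
    rw [hpm B R, hBc, S.card_eq_multiplicity, ← (P p hp hpA).card_eq_multiplicity]
    obtain ⟨k, hk⟩ := IsPGroup.iff_card.mp (P p hp hpA).isPGroup'
    rw [hk]
    refine Nat.le_of_dvd (pow_pos hp.pos _) (pow_dvd_pow p ?_)
    rw [← hp.pow_dvd_iff_le_factorization Nat.card_pos.ne', ← hk]
    exact Subgroup.card_dvd_of_le (hPA p hp hpA)
  obtain ⟨g, hg⟩ := MulAction.exists_smul_eq G (P p hp hpA) S
  have hg' : MulAut.conj g • (P p hp hpA : Subgroup G) = (S : Subgroup G) := by
    rw [← hg]; rfl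
  have hBle : B ≤ MulAut.conj g • A := by
    intro b hb
    rw [Cfsg.Agent.H19.mem_conj_smul, ← hNX _ (hPA p hp hpA) (hP0 p hp hpA),
      Subgroup.mem_normalizer_iff_map_conj_eq]
    have hbS : MulAut.conj b • (S : Subgroup G) = (S : Subgroup G) := by
      have hmem : b ∈ Subgroup.normalizer ((S : Subgroup G) : Set G) := by
        apply Subgroup.centralizer_le_normalizer
        rw [Subgroup.mem_centralizer_iff, ← hRS]
        intro x hx
        exact hBcomm x (Subgroup.map_subtype_le _ hx) b hb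
      exact (Subgroup.mem_normalizer_iff_map_conj_eq.mp hmem)
    show MulAut.conj (g⁻¹ * b * g) • (P p hp hpA : Subgroup G) = _
    rw [Cfsg.Agent.H19.conj_mul_smul, Cfsg.Agent.H19.conj_mul_smul, hg', hbS, ← hg', map_inv,
      inv_smul_smul]
  have hBeq : B = MulAut.conj g • A :=
    Subgroup.eq_of_le_of_card_ge hBle (by rw [Cfsg.Agent.H19.card_conj_smul, hBc])
  let Q₁ : Subgroup G := MulAut.conj g⁻¹ • Q'
  have hAQ : A ≤ Subgroup.normalizer (Q₁ : Set G) := by
    intro a ha
    have h1 : g * a * g⁻¹ ∈ B := hBeq ▸ (⟨a, ha, rfl⟩ : g * a * g⁻¹ ∈ MulAut.conj g • A)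
    have h2 : MulAut.conj (g * a * g⁻¹) • Q' = Q' :=
      Subgroup.mem_normalizer_iff_map_conj_eq.mp ((Subgroup.map_subtype_le B₀) h1)
    rw [Subgroup.mem_normalizer_iff_map_conj_eq]
    show MulAut.conj a • (MulAut.conj g⁻¹ • Q') = MulAut.conj g⁻¹ • Q'
    conv_rhs => rw [← h2]
    rw [← Cfsg.Agent.H19.conj_mul_smul, ← Cfsg.Agent.H19.conj_mul_smul]
    congr 2
    group
  have hQ₁K : Q₁ ≤ K := by
    have h1 : MulAut.conj g⁻¹ • Q' ≤ MulAut.conj g⁻¹ • K :=
      Subgroup.pointwise_smul_le_pointwise_smul_iff.mpr (Subgroup.map_subtype_le _)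
    rwa [Cfsg.Agent.H19.conj_smul_normal g⁻¹ K] at h1
  have hQ₁p : IsPGroup q Q₁ := (Q.isPGroup'.map K.subtype).map _
  have hQ₁0 : Q₁ ≠ ⊥ := by
    intro h
    apply hQ0
    rw [← Subgroup.card_eq_one, ← Cfsg.Agent.H19.card_conj_smul g⁻¹ Q']
    change Nat.card Q₁ = 1
    rw [h, Subgroup.card_bot]
  have htop := habove Q₁ hQ₁K hQ₁0
  have hQn : Q₁.Normal := by
    rw [← Subgroup.normalizer_eq_top_iff, eq_top_iff, ← htop]
    exact sup_le Subgroup.le_normalizer hAQ
  have hKQ : K = Q₁ := by
    refine le_antisymm (fun k hk => ?_) hQ₁K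
    obtain ⟨y, hy, a, ha, rfl⟩ := Subgroup.mem_sup_of_normal_left.mp (htop.symm ▸ Subgroup.mem_top k)
    have h1 : a ∈ K ⊓ A := by
      refine ⟨?_, ha⟩
      have := mul_mem (inv_mem (hQ₁K hy)) hk
      rwa [inv_mul_cancel_left] at this
    rw [hKA, Subgroup.mem_bot] at h1
    rwa [h1, mul_one]
  -- `K` is abelian
  have hKsol : Group.IsSolvable K := by
    rw [hKQ]
    have := hQ₁p.isNilpotent
    infer_instance
  have hKab : ⁅K, K⁆ = ⊥ := by
    by_contra h
    have hlt : ⁅K, K⁆ < K := by
      refine lt_of_le_of_ne (Subgroup.commutator_le_self K) fun e => ?_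
      have : Nontrivial K := (Subgroup.nontrivial_iff_ne_bot K).mpr hK0
      have h2 := Group.IsSolvable.commutator_lt_top_of_nontrivial (G := K)
      apply h2.ne
      apply Subgroup.map_injective K.subtype_injective
      rw [Subgroup.map_subtype_commutator, e, ← MonoidHom.range_eq_map, Subgroup.range_subtype]
    have := habove _ hlt.le h
    refine hlt.not_ge fun k hk => ?_
    obtain ⟨y, hy, a, ha, rfl⟩ := Subgroup.mem_sup_of_normal_left.mp (this.symm ▸ Subgroup.mem_top k)
    have h1 : a ∈ K ⊓ A := by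
      refine ⟨?_, ha⟩
      have := mul_mem (inv_mem (hlt.le hy)) hk
      rwa [inv_mul_cancel_left] at this
    rw [hKA, Subgroup.mem_bot] at h1
    rwa [h1, mul_one]
  rw [derivedSeries_succ, derivedSeries_one, eq_bot_iff, ← hKab]
  exact Subgroup.commutator_mono hcK hcK

/-- Herstein: a finite group with an abelian maximal subgroup has derived length at most three. -/
theorem derivedSeries_three_of_abelian_maximal {A : Subgroup G} (hA : IsCoatom A)
    [hAc : IsMulCommutative A] : derivedSeries G 3 = ⊥ := by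
  have hs := QuotientGroup.mk'_surjective A.normalCore
  have hle : A.normalCore ≤ A := A.normalCore_le
  have hker : (QuotientGroup.mk' A.normalCore).ker ≤ A := by rwa [QuotientGroup.ker_mk']
  have hcomap : (A.map (QuotientGroup.mk' A.normalCore)).comap (QuotientGroup.mk' A.normalCore) = A :=
    Subgroup.comap_map_eq_self hker
  have hco : IsCoatom (A.map (QuotientGroup.mk' A.normalCore)) := by
    refine ⟨fun h => hA.1 (by rw [← hcomap, h, Subgroup.comap_top]), fun B hB => ?_⟩
    have h1 := (Subgroup.comap_lt_comap_of_surjective hs).mpr hB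
    rw [hcomap] at h1
    rw [← Subgroup.map_comap_eq_self_of_surjective hs B, hA.2 _ h1,
      Subgroup.map_top_of_surjective _ hs]
  have : IsMulCommutative (A.map (QuotientGroup.mk' A.normalCore)) := by
    refine ⟨⟨?_⟩⟩
    rintro ⟨_, a, ha, rfl⟩ ⟨_, b, hb, rfl⟩
    apply Subtype.ext
    show QuotientGroup.mk' _ a * QuotientGroup.mk' _ b = _
    rw [← map_mul, show a * b = b * a from congrArg Subtype.val (hAc.is_comm.comm ⟨a, ha⟩ ⟨b, hb⟩),
      map_mul]
    rfl
  have hc : (A.map (QuotientGroup.mk' A.normalCore)).normalCore = ⊥ := by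
    let C := (A.map (QuotientGroup.mk' A.normalCore)).normalCore
    have h1 : C.comap (QuotientGroup.mk' A.normalCore) ≤ A :=
      (Subgroup.comap_mono (Subgroup.normalCore_le _)).trans_eq hcomap
    have h2 : C.comap (QuotientGroup.mk' A.normalCore) ≤ A.normalCore :=
      Subgroup.normal_le_normalCore.mpr h1
    rw [eq_bot_iff]
    intro x hx
    obtain ⟨y, rfl⟩ := hs x
    exact (QuotientGroup.eq_one_iff y).mpr (h2 hx)
  have h2 := derivedSeries_two_of_corefree_abelian_maximal hco hc
  rw [← map_derivedSeries_eq hs, Subgroup.map_eq_bot_iff, QuotientGroup.ker_mk'] at h2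
  rw [derivedSeries_succ, eq_bot_iff, Subgroup.commutator_le]
  intro a ha b hb
  rw [Subgroup.mem_bot, commutatorElement_eq_one_iff_mul_comm]
  exact congrArg Subtype.val (hAc.is_comm.comm ⟨a, hle (h2 ha)⟩ ⟨b, hle (h2 hb)⟩)

end Cfsg.Agent.H32
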