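import Cfsg.Prelude.Def_SolvableStructure
import Cfsg.Agent.H32.Basic
import Cfsg.Agent.H19.Basic
import Cfsg.Agent.H19.Hall
import Cfsg.Agent.H19.Misc

set_option autoImplicit false
open Pointwise

namespace Cfsg.Agent.H32

variable {G : Type*} [Group G] [Finite G]

/-- The primes dividing the group order, as elements of `Nat.Primes`. -/
noncomputable def orderPrimes (G : Type*) [Group G] : Finset Nat.Primes :=
  (Nat.card G).primeFactors.subtype Nat.Prime

theorem mem_orderPrimes {p : Nat.Primes} : p ∈ orderPrimes G ↔ (p : ℕ) ∣ Nat.card G :=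
  Finset.mem_subtype.trans ⟨fun h => Nat.dvd_of_mem_primeFactors h,
    fun h => p.2.mem_primeFactors h Nat.card_pos.ne'⟩

theorem eq_top_of_not_mem_orderPrimes {K : Nat.Primes → Subgroup G}
    (hK : Cfsg.IsComplementSystem K) {p : Nat.Primes} (hp : p ∉ orderPrimes G) : K p = ⊤ := by
  have hd : ¬ (p : ℕ) ∣ Nat.card G := fun h =>
    hp (mem_orderPrimes.mpr h)
  rw [← Subgroup.index_eq_one, hK p, Nat.factorization_eq_zero_of_not_dvd hd, pow_zero]

theorem coprime_index_finsetInf {K : Nat.Primes → Subgroup G} (hK : Cfsg.IsComplementSystem K)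
    (s : Finset Nat.Primes) : ∀ {p : Nat.Primes}, p ∉ s →
      (s.inf K).index.Coprime (K p).index := by
  classical
  induction s using Finset.induction_on with
  | empty => intro p _; rw [Finset.inf_empty, Subgroup.index_top]; exact Nat.coprime_one_left _
  | insert q s hq ih =>
    intro p hp
    rw [Finset.mem_insert, not_or] at hp
    rw [Finset.inf_insert, (Cfsg.Agent.H19.index_inf_of_coprime (ih hq).symm).1]
    refine Nat.Coprime.mul_left ?_ (ih hp.2)
    rw [hK q, hK p]
    exact Nat.Coprime.pow _ _ ((Nat.coprime_primes q.2 p.2).mpr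
      fun h => hp.1 (Subtype.ext h.symm))

/-- Elementwise factorization `G = (⋂ K r) * H` for `H` of the index of another member. -/
theorem exists_mul_finsetInf {K : Nat.Primes → Subgroup G} (hK : Cfsg.IsComplementSystem K)
    {s : Finset Nat.Primes} {p : Nat.Primes} (hp : p ∉ s) {H : Subgroup G}
    (hH : H.index = (K p).index) (g : G) :
    ∃ d ∈ s.inf K, ∃ h ∈ H, g = d * h :=
  (Cfsg.Agent.H19.index_inf_of_coprime (hH.symm ▸ coprime_index_finsetInf hK s hp)).2 g

theorem card_coprime_index_complement {K : Nat.Primes → Subgroup G}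
    (hK : Cfsg.IsComplementSystem K) (p : Nat.Primes) :
    Nat.card G = Nat.card (K p) * (K p).index ∧ (Nat.card (K p)).Coprime (K p).index := by
  refine ⟨(Subgroup.card_mul_index _).symm, ?_⟩
  have : Nat.card (K p) = Nat.card G / (p : ℕ) ^ (Nat.card G).factorization p := by
    rw [← hK p]
    exact (Nat.div_eq_of_eq_mul_left (Nat.pos_of_ne_zero Subgroup.index_ne_zero_of_finite)
      (Subgroup.card_mul_index _).symm).symm
  rw [this, hK p]
  exact (Nat.coprime_ordCompl p.2 Nat.card_pos.ne').symm.pow_right _

theorem index_conj_smul (g : G) (H : Subgroup G) : (MulAut.conj g • H).index = H.index := by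
  apply Nat.eq_of_mul_eq_mul_left (Nat.card_pos (α := H))
  rw [H.card_mul_index, ← Cfsg.Agent.H19.card_conj_smul g H, Subgroup.card_mul_index]

omit [Finite G] in
theorem conj_smul_eq_iff_mem_normalizer {g : G} {H : Subgroup G} :
    MulAut.conj g • H = H ↔ g ∈ Subgroup.normalizer (H : Set G) := by
  rw [Subgroup.mem_normalizer_iff_map_conj_eq]
  rfl

/-- Any two complement systems of a finite solvable group are simultaneously conjugate. -/
theorem complementSystems_conj [Group.IsSolvable G] {K L : Nat.Primes → Subgroup G}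
    (hK : Cfsg.IsComplementSystem K) (hL : Cfsg.IsComplementSystem L) :
    ∃ g : G, ∀ p, MulAut.conj g • K p = L p := by
  classical
  have key : ∀ s : Finset Nat.Primes, ∃ g : G, ∀ p ∈ s, MulAut.conj g • K p = L p := by
    intro s
    induction s using Finset.induction_on with
    | empty => exact ⟨1, fun p hp => absurd hp (Finset.notMem_empty p)⟩
    | insert q s hq ih =>
      obtain ⟨g, hg⟩ := ih
      obtain ⟨e, hco⟩ := card_coprime_index_complement hL q
      have hidx : (MulAut.conj g • K q).index = (L q).index := by rw [index_conj_smul, hK q, hL q]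
      have hcard : Nat.card (MulAut.conj g • K q : Subgroup G) = Nat.card (L q) := by
        have := (Subgroup.card_mul_index (MulAut.conj g • K q)).trans e
        rw [hidx] at this
        exact Nat.eq_of_mul_eq_mul_right (Nat.pos_of_ne_zero Subgroup.index_ne_zero_of_finite) this
      obtain ⟨x, hx⟩ := Cfsg.Agent.H19.hall_conj e hco hcard rfl
      obtain ⟨d, hd, k, hk, rfl⟩ := exists_mul_finsetInf hL hq hidx x
      refine ⟨d * g, fun p hp => ?_⟩
      rw [Cfsg.Agent.H19.conj_mul_smul]
      rcases Finset.mem_insert.mp hp with rfl | hp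
      · rwa [Cfsg.Agent.H19.conj_mul_smul, Cfsg.Agent.H19.conj_smul_of_mem hk] at hx
      · rw [hg p hp]
        exact Cfsg.Agent.H19.conj_smul_of_mem ((Finset.inf_le hp : s.inf L ≤ L p) hd)
  obtain ⟨g, hg⟩ := key (orderPrimes G)
  refine ⟨g, fun p => ?_⟩
  by_cases hp : p ∈ orderPrimes G
  · exact hg p hp
  · rw [eq_top_of_not_mem_orderPrimes hK hp, eq_top_of_not_mem_orderPrimes hL hp]
    exact Cfsg.Agent.H19.conj_smul_normal g _

/-- The system normalizer of a complement system is nilpotent. -/
theorem systemNormalizer_isNilpotent {K : Nat.Primes → Subgroup G}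
    (hK : Cfsg.IsComplementSystem K) : Group.IsNilpotent (Cfsg.systemNormalizer K) := by
  classical
  let D : Subgroup G := Cfsg.systemNormalizer K
  change Group.IsNilpotent D
  have hDle : ∀ p, D ≤ Subgroup.normalizer (K p : Set G) := fun p => iInf_le _ p
  have hn : ∀ p : orderPrimes G, ((K p).subgroupOf D).Normal := fun p =>
    Subgroup.normal_subgroupOf_of_le_normalizer (hDle p)
  have hnil : ∀ p : orderPrimes G, Group.IsNilpotent (D ⧸ (K p).subgroupOf D) := by
    intro p
    have : Fact (Nat.Prime ((p : Nat.Primes) : ℕ)) := ⟨(p : Nat.Primes).2⟩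
    have hd : ((K p).subgroupOf D).index ∣ ((p : Nat.Primes) : ℕ) ^
        (Nat.card G).factorization (p : Nat.Primes) := by
      rw [← hK p]
      let N := Subgroup.normalizer (K p : Set G)
      have h1 : ((K p).subgroupOf N).relIndex (D.subgroupOf N) ∣ ((K p).subgroupOf N).index :=
        Subgroup.relIndex_dvd_index_of_normal _ _
      rw [Subgroup.relIndex_subgroupOf (hDle p)] at h1
      exact h1.trans (Subgroup.relIndex_dvd_index_of_le Subgroup.le_normalizer)
    exact (IsPGroup.of_card_dvd_pow hd :
      IsPGroup ((p : Nat.Primes) : ℕ) (D ⧸ (K p).subgroupOf D)).isNilpotent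
  let f : D →* (∀ p : orderPrimes G, D ⧸ (K p).subgroupOf D) :=
    MonoidHom.mk' (fun d p => QuotientGroup.mk' _ d) (fun a b => funext fun p => map_mul _ a b)
  have hinj : Function.Injective f := by
    rw [injective_iff_map_eq_one]
    intro d hd
    have hmem : ∀ p : Nat.Primes, (d : G) ∈ K p := by
      intro p
      by_cases hp : p ∈ orderPrimes G
      · exact (QuotientGroup.eq_one_iff d).mp (congrFun hd ⟨p, hp⟩)
      · rw [eq_top_of_not_mem_orderPrimes hK hp]; trivial
    by_contra hne
    have ho : orderOf (d : G) ≠ 1 := by simpa using fun h => hne (Subtype.ext h)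
    obtain ⟨r, hr, hrd⟩ := Nat.exists_prime_and_dvd ho
    have hrK : r ∣ Nat.card (K ⟨r, hr⟩) :=
      hrd.trans (by
        have := orderOf_dvd_natCard (⟨(d : G), hmem ⟨r, hr⟩⟩ : K ⟨r, hr⟩)
        rwa [← Subgroup.orderOf_coe] at this)
    have hrI : r ∣ (K ⟨r, hr⟩).index := by
      rw [hK ⟨r, hr⟩]
      exact dvd_pow_self r (Nat.pos_iff_ne_zero.mp
        (hr.factorization_pos_of_dvd Nat.card_pos.ne' (hrd.trans (orderOf_dvd_natCard _))))
    exact hr.ne_one (Nat.eq_one_of_dvd_coprimes (card_coprime_index_complement hK ⟨r, hr⟩).2 hrK hrI)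
  have : Group.IsNilpotent f.range := inferInstance
  exact Group.nilpotent_of_mulEquiv (MonoidHom.ofInjective hinj).symm

theorem isComplementSystem_map {K : Nat.Primes → Subgroup G} (hK : Cfsg.IsComplementSystem K)
    (N : Subgroup G) [N.Normal] :
    Cfsg.IsComplementSystem fun p => (K p).map (QuotientGroup.mk' N) := by
  intro p
  obtain ⟨-, hco⟩ := card_coprime_index_complement hK p
  have hd : ((K p).map (QuotientGroup.mk' N)).index ∣ (K p).index :=
    Subgroup.index_map_dvd _ (QuotientGroup.mk'_surjective N)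
  rw [hK p] at hd hco
  obtain ⟨b, -, hb⟩ := (Nat.dvd_prime_pow p.2).mp hd
  have e := Subgroup.card_mul_index ((K p).map (QuotientGroup.mk' N))
  rw [hb] at e
  have hnd : ¬ (p : ℕ) ∣ Nat.card ((K p).map (QuotientGroup.mk' N)) := by
    intro hpd
    have hpK := hpd.trans (Subgroup.card_map_dvd _ _)
    have hpG : (p : ℕ) ∣ Nat.card G := hpK.trans (Subgroup.card_subgroup_dvd_card _)
    exact p.2.ne_one (Nat.eq_one_of_dvd_coprimes hco hpK (dvd_pow_self _
      (Nat.pos_iff_ne_zero.mp (p.2.factorization_pos_of_dvd Nat.card_pos.ne' hpG))))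
  have hpow : (Nat.card (G ⧸ N)).factorization p = b := by
    rw [← e, Nat.factorization_mul Nat.card_pos.ne' (pow_ne_zero _ p.2.ne_zero), Finsupp.add_apply,
      Nat.factorization_eq_zero_of_not_dvd hnd, p.2.factorization_pow, Finsupp.single_eq_same,
      zero_add]
  rw [hpow]
  exact hb

/-- The system normalizer of the image is the image of the system normalizer. -/
theorem systemNormalizer_map [Group.IsSolvable G] {K : Nat.Primes → Subgroup G}
    (hK : Cfsg.IsComplementSystem K) (N : Subgroup G) [N.Normal] :
    Cfsg.systemNormalizer (fun p => (K p).map (QuotientGroup.mk' N)) =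
      (Cfsg.systemNormalizer K).map (QuotientGroup.mk' N) := by
  classical
  apply le_antisymm
  · intro x hx
    obtain ⟨g, rfl⟩ := QuotientGroup.mk'_surjective N x
    rw [Cfsg.systemNormalizer, Subgroup.mem_iInf] at hx
    have key : ∀ s : Finset Nat.Primes, ∃ g' : G,
        QuotientGroup.mk' N g' = QuotientGroup.mk' N g ∧ ∀ p ∈ s, MulAut.conj g' • K p = K p := by
      intro s
      induction s using Finset.induction_on with
      | empty => exact ⟨g, rfl, fun p hp => absurd hp (Finset.notMem_empty p)⟩
      | insert q s hq ih =>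
        obtain ⟨g', hg', hfix⟩ := ih
        let L : Subgroup G := K q ⊔ N
        have hle : MulAut.conj g' • K q ≤ L := by
          have h1 : (MulAut.conj g' • K q).map (QuotientGroup.mk' N) =
              (K q).map (QuotientGroup.mk' N) := by
            rw [Cfsg.Agent.H19.map_conj_smul, hg']
            exact conj_smul_eq_iff_mem_normalizer.mpr (hx q)
          have h2 := Subgroup.le_comap_map (QuotientGroup.mk' N) (MulAut.conj g' • K q)
          rwa [h1, Subgroup.comap_map_eq, QuotientGroup.ker_mk'] at h2
        obtain ⟨-, hco⟩ := card_coprime_index_complement hK q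
        have hc : ∀ M : Subgroup G, M ≤ L → Nat.card (M.subgroupOf L) = Nat.card M := fun M hM =>
          Nat.card_congr (Subgroup.subgroupOfEquivOfLe hM).toEquiv
        obtain ⟨x, hx'⟩ := Cfsg.Agent.H19.hall_conj (G := L) (m := Nat.card (K q))
          (n := (K q).relIndex L) (card_mul_relIndex le_sup_left).symm
          (hco.coprime_dvd_right (Subgroup.relIndex_dvd_index_of_le le_sup_left))
          (H := (K q).subgroupOf L) (K := (MulAut.conj g' • K q).subgroupOf L) (hc _ le_sup_left)
          (by rw [hc _ hle, Cfsg.Agent.H19.card_conj_smul])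
        have hxe : MulAut.conj (x : G) • K q = MulAut.conj g' • K q := by
          have := congrArg (Subgroup.map L.subtype) hx'
          rwa [Cfsg.Agent.H19.map_conj_smul, Subgroup.map_subgroupOf_eq_of_le le_sup_left,
            Subgroup.map_subgroupOf_eq_of_le hle] at this
        obtain ⟨n, hn, k, hk, hnk⟩ := Subgroup.mem_sup_of_normal_left.mp
          (sup_comm (K q) N ▸ x.2 : (x : G) ∈ N ⊔ K q)
        have hcop : ((s.inf K).subgroupOf N).index.Coprime ((K q).subgroupOf N).index :=
          ((coprime_index_finsetInf hK s hq).coprime_dvd_left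
            (relIndex_dvd_index' _ N)).coprime_dvd_right (relIndex_dvd_index' _ N)
        obtain ⟨t, ht, u, hu, htu⟩ := (Cfsg.Agent.H19.index_inf_of_coprime hcop).2 ⟨n, hn⟩
        have hn' : n = (t : G) * u := congrArg Subtype.val htu
        have hte : MulAut.conj g' • K q = MulAut.conj (t : G) • K q := by
          rw [← hxe, ← hnk, hn', Cfsg.Agent.H19.conj_mul_smul, Cfsg.Agent.H19.conj_smul_of_mem hk,
            Cfsg.Agent.H19.conj_mul_smul,
            Cfsg.Agent.H19.conj_smul_of_mem (show (u : G) ∈ K q from hu)]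
        refine ⟨(t : G)⁻¹ * g', ?_, fun p hp => ?_⟩
        · have ht1 : QuotientGroup.mk' N (t : G) = 1 := (QuotientGroup.eq_one_iff _).mpr t.2
          rw [map_mul, map_inv, ht1, inv_one, one_mul, hg']
        · rw [Cfsg.Agent.H19.conj_mul_smul]
          rcases Finset.mem_insert.mp hp with rfl | hp
          · rw [hte, map_inv, inv_smul_smul]
          · rw [hfix p hp]
            exact Cfsg.Agent.H19.conj_smul_of_mem (Subgroup.inv_mem _ ((Finset.inf_le hp : s.inf K ≤ K p) ht))
    obtain ⟨g', hg', hfix⟩ := key (orderPrimes G)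
    refine ⟨g', ?_, hg'⟩
    rw [SetLike.mem_coe, Cfsg.systemNormalizer, Subgroup.mem_iInf]
    intro p
    rw [← conj_smul_eq_iff_mem_normalizer]
    by_cases hp : p ∈ orderPrimes G
    · exact hfix p hp
    · rw [eq_top_of_not_mem_orderPrimes hK hp]
      exact Cfsg.Agent.H19.conj_smul_normal g' _
  · refine le_iInf fun p => ?_
    exact (Subgroup.map_mono (iInf_le _ p)).trans (Subgroup.le_normalizer_map _)

end Cfsg.Agent.H32
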