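import Cfsg.Agent.H32.SupersolvableStructure

set_option autoImplicit false

namespace Cfsg.Agent.H32

universe u

theorem hereditary_subgroup {G : Type u} [Group G]
    (h : ∀ H : Subgroup G, Cfsg.HasSubgroupOfEveryOrder H) (K : Subgroup G) :
    ∀ H : Subgroup K, Cfsg.HasSubgroupOfEveryOrder H := by
  intro H d hd
  let e : H ≃* H.map K.subtype := H.equivMapOfInjective K.subtype K.subtype_injective
  rw [Nat.card_congr e.toEquiv] at hd
  obtain ⟨L, hL⟩ := h _ d hd
  refine ⟨L.map e.symm.toMonoidHom, ?_⟩
  rw [Subgroup.card_map_of_injective e.symm.injective, hL]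

theorem exists_index_prime {G : Type u} [Group G] [Finite G]
    (h : ∀ H : Subgroup G, Cfsg.HasSubgroupOfEveryOrder H) {q : ℕ} (hq : q.Prime)
    (hd : q ∣ Nat.card G) : ∃ M : Subgroup G, M.index = q := by
  have hd' : Nat.card G / q ∣ Nat.card (⊤ : Subgroup G) := by
    rw [Subgroup.card_top]; exact Nat.div_dvd_of_dvd hd
  obtain ⟨L, hL⟩ := h ⊤ _ hd'
  refine ⟨L.map (⊤ : Subgroup G).subtype, ?_⟩
  have hc : Nat.card (L.map (⊤ : Subgroup G).subtype) = Nat.card G / q := by
    rw [Subgroup.card_map_of_injective (⊤ : Subgroup G).subtype_injective, hL]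
  have := Subgroup.card_mul_index (L.map (⊤ : Subgroup G).subtype)
  rw [hc] at this
  exact Nat.eq_of_mul_eq_mul_left
    (Nat.div_pos (Nat.le_of_dvd Nat.card_pos hd) hq.pos) (this.trans (Nat.div_mul_cancel hd).symm)

/-- Hereditary converse of Lagrange gives a normal Sylow subgroup for the largest prime. -/
theorem normal_sylow_of_hereditary {G : Type u} [Group G] [Finite G]
    (h : ∀ H : Subgroup G, Cfsg.HasSubgroupOfEveryOrder H) (p : ℕ) [hp : Fact p.Prime]
    (hdvd : p ∣ Nat.card G) (hmax : ∀ q : ℕ, q.Prime → q ∣ Nat.card G → q ≤ p) (P : Sylow p G) :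
    (P : Subgroup G).Normal := by
  induction hn : Nat.card G using Nat.strong_induction_on generalizing G with
  | _ n ih =>
    subst hn
    have h1 : Nat.card G ≠ 1 := fun h => hp.out.ne_one (Nat.dvd_one.mp (h ▸ hdvd))
    have hq := Nat.minFac_prime h1
    obtain ⟨M, hM⟩ := exists_index_prime h hq (Nat.minFac_dvd _)
    have hMn : M.Normal := Subgroup.normal_of_index_eq_minFac_card hM
    by_cases hqp : (Nat.card G).minFac = p
    · have hpg : IsPGroup p G := IsPGroup.of_card (n := (Nat.card G).primeFactorsList.length) (by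
        apply Nat.eq_prime_pow_of_unique_prime_dvd Nat.card_pos.ne'
        intro d hd hdd
        exact le_antisymm (hmax d hd hdd) (hqp ▸ Nat.minFac_le_of_dvd hd.two_le hdd))
      have : (P : Subgroup G) = ⊤ :=
        P.is_maximal' (hpg.to_subgroup ⊤) le_top |>.symm
      rw [this]; infer_instance
    have hMtop : M ≠ ⊤ := fun e => hq.ne_one (by rw [← hM, e, Subgroup.index_top])
    have hpM : ¬ p ∣ M.index := by
      rw [hM]; exact fun hd => hqp ((Nat.prime_dvd_prime_iff_eq hp.out hq).mp hd).symm
    obtain ⟨R⟩ := (inferInstance : Nonempty (Sylow p M))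
    have hpMc : p ∣ Nat.card M := by
      rw [← M.card_mul_index] at hdvd
      exact (hp.out.dvd_mul.mp hdvd).resolve_right hpM
    have hR := ih _ (card_subgroup_lt hMtop) (hereditary_subgroup h M) hpMc
      (fun q hq hqd => hmax q hq (hqd.trans (Subgroup.card_subgroup_dvd_card M))) R rfl
    have : (R : Subgroup M).Characteristic := R.characteristic_of_normal hR
    have hRn : ((R : Subgroup M).map M.subtype).Normal := ConjAct.normal_of_characteristic_of_normal
    have hle : (R : Subgroup M).map M.subtype ≤ (P : Subgroup G) :=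
      (R.isPGroup'.map _).le_sylow_of_normal P
    have hnd : ¬ p ∣ ((R : Subgroup M).map M.subtype).index := by
      rw [Subgroup.index_map_subtype, hp.out.dvd_mul]
      exact not_or.mpr ⟨R.not_dvd_index, hpM⟩
    have heq : (R : Subgroup M).map M.subtype = (P : Subgroup G) := by
      refine le_antisymm hle (Subgroup.relIndex_eq_one.mp ?_)
      obtain ⟨k, hk⟩ := P.isPGroup'.index (((R : Subgroup M).map M.subtype).subgroupOf P)
      change ((R : Subgroup M).map M.subtype).relIndex P = p ^ k at hk
      rcases k with _ | k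
      · exact hk.trans (pow_zero p)
      · exact absurd ((hk ▸ dvd_pow_self p (Nat.succ_ne_zero k)).trans
          (Subgroup.relIndex_dvd_index_of_le hle)) hnd
    exact heq ▸ hRn

/-- A product of a normal `p`-subgroup `P` with a supersolvable `M`, with `|P : P ⊓ M| = p` and
`P ⊓ M` normal, is supersolvable. -/
theorem isSupersolvable_of_pgroup_factor {G : Type u} [Group G] [Finite G] {p : ℕ}
    [hp : Fact p.Prime] (P M : Subgroup G) [P.Normal] (hP : IsPGroup p P)
    (hM : Cfsg.IsSupersolvable M) (hsup : P ⊔ M = ⊤) (hI : (P ⊓ M).Normal)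
    (hidx : M.relIndex P = p) : Cfsg.IsSupersolvable G := by
  induction hn : Nat.card G using Nat.strong_induction_on generalizing G with
  | _ n ih =>
    subst hn
    by_cases h0 : P ⊓ M = ⊥
    · have hPc : Nat.card P = p := by
        rw [← Subgroup.inf_relIndex_right, inf_comm, h0, Subgroup.relIndex_bot_left] at hidx
        exact hidx
      refine isSupersolvable_of_prime_normal P hp.out hPc
        (isSupersolvable_of_surjective ((QuotientGroup.mk' P).comp M.subtype) ?_ hM)
      rw [← MonoidHom.range_eq_top, MonoidHom.range_comp, Subgroup.range_subtype]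
      have h1 : (P ⊔ M).map (QuotientGroup.mk' P) = (⊤ : Subgroup G).map (QuotientGroup.mk' P) := by
        rw [hsup]
      rwa [Subgroup.map_sup, QuotientGroup.map_mk'_self, bot_sup_eq,
        Subgroup.map_top_of_surjective _ (QuotientGroup.mk'_surjective P)] at h1
    obtain ⟨N, hN, hNle⟩ := exists_minNormal_le _ hI h0
    have := hN.1
    have hNP : N ≤ P := hNle.trans inf_le_left
    have hNM : N ≤ M := hNle.trans inf_le_right
    -- `P` centralizes `N`
    have hNc : N ≤ Subgroup.centralizer (P : Set G) := by
      have hb : N.subgroupOf P ≠ ⊥ := by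
        rw [Ne, Subgroup.subgroupOf_eq_bot, disjoint_iff, inf_eq_left.mpr hNP]
        exact hN.2.1
      obtain ⟨z, hzN, hz1, hzc⟩ := exists_central_of_normal_pgroup hP (N.subgroupOf P) hb
      rcases hN.2.2 (N ⊓ Subgroup.centralizer (P : Set G)) inferInstance inf_le_left with h1 | h1
      · exfalso
        have : (z : G) ∈ N ⊓ Subgroup.centralizer (P : Set G) := ⟨hzN,
          Subgroup.mem_centralizer_iff.mpr fun a ha =>
            congrArg Subtype.val (Subgroup.mem_center_iff.mp hzc ⟨a, ha⟩)⟩
        rw [h1] at this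
        exact hz1 (Subtype.ext (Subgroup.mem_bot.mp this))
      · exact inf_eq_left.mp h1
    have hNp : (Nat.card N).Prime := by
      have hb : N.subgroupOf M ≠ ⊥ := by
        rw [Ne, Subgroup.subgroupOf_eq_bot, disjoint_iff, inf_eq_left.mpr hNM]
        exact hN.2.1
      obtain ⟨X, hX, hXN⟩ := exists_minNormal_le (N.subgroupOf M) inferInstance hb
      have hXc := card_minNormal_prime hM hX
      have hle : X.map M.subtype ≤ N := Subgroup.map_le_iff_le_comap.mpr hXN
      have hXn : (X.map M.subtype).Normal := by
        rw [← Subgroup.normalizer_eq_top_iff, eq_top_iff, ← hsup]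
        refine sup_le ?_ ?_
        · intro a ha
          have hcomm : ∀ y ∈ X.map M.subtype, a * y * a⁻¹ = y := fun y hy => by
            rw [Subgroup.mem_centralizer_iff.mp (hNc (hle hy)) a ha, mul_inv_cancel_right]
          rw [Subgroup.mem_normalizer_iff]
          intro y
          refine ⟨fun hy => (hcomm y hy).symm ▸ hy, fun hy => ?_⟩
          have := hcomm _ hy
          have e : a * y * a⁻¹ = y := mul_left_cancel (mul_right_cancel this)
          rwa [e] at hy
        · have := X.le_normalizer_map M.subtype
          have hXn' := hX.1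
          rwa [Subgroup.normalizer_eq_top, ← MonoidHom.range_eq_map, Subgroup.range_subtype] at this
      rcases hN.2.2 _ hXn hle with h1 | h1
      · rw [Subgroup.map_eq_bot_iff_of_injective X M.subtype_injective] at h1
        exact absurd h1 hX.2.1
      · rw [← h1, Subgroup.card_map_of_injective M.subtype_injective]
        exact hXc
    have hs := QuotientGroup.mk'_surjective N
    have hk : (QuotientGroup.mk' N).ker = N := QuotientGroup.ker_mk' N
    have hPn : (P.map (QuotientGroup.mk' N)).Normal := Subgroup.Normal.map ‹P.Normal› _ hs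
    have hcm : ∀ H : Subgroup G, N ≤ H → (H.map (QuotientGroup.mk' N)).comap (QuotientGroup.mk' N) = H :=
      fun H h => Subgroup.comap_map_eq_self (hk.symm ▸ h)
    have hinf : P.map (QuotientGroup.mk' N) ⊓ M.map (QuotientGroup.mk' N) =
        (P ⊓ M).map (QuotientGroup.mk' N) := by
      apply Subgroup.comap_injective hs
      rw [Subgroup.comap_inf, hcm P hNP, hcm M hNM, hcm (P ⊓ M) hNle]
    refine isSupersolvable_of_prime_normal N hNp rfl (ih _ (card_quotient_lt N hN.2.1)
      (P.map (QuotientGroup.mk' N)) (M.map (QuotientGroup.mk' N)) (hP.map _) ?_ ?_ ?_ ?_ rfl)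
    · exact isSupersolvable_of_surjective ((QuotientGroup.mk' N).subgroupMap M)
        (MonoidHom.subgroupMap_surjective _ M) hM
    · rw [← Subgroup.map_sup, hsup, Subgroup.map_top_of_surjective _ hs]
    · rw [hinf]; exact hI.map _ hs
    · rw [Subgroup.relIndex_map_map, hk, sup_eq_left.mpr hNM, sup_eq_left.mpr hNP, hidx]

/-- A finite group all of whose subgroups satisfy the converse of Lagrange is supersolvable. -/
theorem isSupersolvable_of_hereditary {G : Type u} [Group G] [Finite G]
    (h : ∀ H : Subgroup G, Cfsg.HasSubgroupOfEveryOrder H) : Cfsg.IsSupersolvable G := by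
  induction hn : Nat.card G using Nat.strong_induction_on generalizing G with
  | _ n ih =>
    subst hn
    cases subsingleton_or_nontrivial G
    · exact isSupersolvable_of_subsingleton
    have hne : (Nat.card G).primeFactors.Nonempty :=
      Nat.nonempty_primeFactors.mpr Finite.one_lt_card
    obtain ⟨p, hmem, hmax⟩ : ∃ p ∈ (Nat.card G).primeFactors,
        ∀ q ∈ (Nat.card G).primeFactors, q ≤ p :=
      ⟨_, Finset.max'_mem _ hne, fun q hq => Finset.le_max' _ q hq⟩
    have hp : Fact p.Prime := ⟨Nat.prime_of_mem_primeFactors hmem⟩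
    have hdvd : p ∣ Nat.card G := Nat.dvd_of_mem_primeFactors hmem
    obtain ⟨P⟩ := (inferInstance : Nonempty (Sylow p G))
    have hPn : (P : Subgroup G).Normal := normal_sylow_of_hereditary h p hdvd
      (fun q hq hqd => hmax q (hq.mem_primeFactors hqd Nat.card_pos.ne')) P
    obtain ⟨M, hM⟩ := exists_index_prime h hp.out hdvd
    have hMtop : M ≠ ⊤ := fun e => hp.out.ne_one (by rw [← hM, e, Subgroup.index_top])
    have hPM : ¬ (P : Subgroup G) ≤ M := fun hle => P.not_dvd_index
      (hM.symm.dvd.trans (Subgroup.index_dvd_of_le hle))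
    have hco : IsCoatom M := ⟨hMtop, fun B hB => by
      have h1 := Subgroup.relIndex_mul_index hB.le
      rw [hM] at h1
      rcases hp.out.eq_one_or_self_of_dvd B.index (Dvd.intro_left _ h1) with h2 | h2
      · exact Subgroup.index_eq_one.mp h2
      · rw [h2, Nat.mul_eq_right hp.out.ne_zero, Subgroup.relIndex_eq_one] at h1
        exact absurd h1 hB.not_ge⟩
    have hsup : (P : Subgroup G) ⊔ M = ⊤ := by
      rw [sup_comm]; exact hco.2 _ (left_lt_sup.mpr hPM)
    have hidx : M.relIndex P = p := by
      rw [← relIndex_sup_eq, sup_comm, hsup, Subgroup.relIndex_top_right, hM]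
    refine isSupersolvable_of_pgroup_factor (P : Subgroup G) M P.isPGroup'
      (ih _ (card_subgroup_lt hMtop) (hereditary_subgroup h M) rfl) hsup ?_ hidx
    rw [← Subgroup.normalizer_eq_top_iff, eq_top_iff, ← hsup]
    refine sup_le ?_ ?_
    · have hidx' : (M.subgroupOf (P : Subgroup G)).index = p := hidx
      have hn : (M.subgroupOf (P : Subgroup G)).Normal := by
        apply Subgroup.normal_of_index_eq_minFac_card
        rw [hidx']
        obtain ⟨k, hk⟩ := IsPGroup.iff_card.mp P.isPGroup'
        have hk0 : k ≠ 0 := by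
          rintro rfl
          exact hPM (by rw [Subgroup.card_eq_one.mp (hk.trans (pow_zero p))]; exact bot_le)
        rw [hk, Nat.pow_minFac hk0, hp.out.minFac_eq]
      rw [Subgroup.normal_subgroupOf_iff_le_normalizer_inf] at hn
      rwa [inf_comm] at hn
    · exact le_trans (le_inf Subgroup.le_normalizer_of_normal Subgroup.le_normalizer)
        Subgroup.inf_normalizer_le_normalizer_inf

end Cfsg.Agent.H32
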