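import Cfsg.Prelude.Def_Blocks
import Cfsg.Agent.H26.CharOrtho
import Cfsg.Agent.H40.CoeffSums
import Cfsg.Agent.H40.PPart
import Cfsg.Agent.H41.PrimeNormal
import Cfsg.Agent.H44.Inflation
import Cfsg.Agent.H42.Arith
import Cfsg.Agent.H51.Basic

/-!
# Principal block columns over a set not inverted by conjugates of an involution
-/

set_option autoImplicit false
set_option linter.unusedSectionVars false

open scoped ComplexConjugate

namespace Cfsg.Agent.H32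

/-- One positive coefficient in three vanishing weighted sums forces proportional values. -/
theorem proportional_of_one_pos {ι : Type*} {s : Finset ι} {a d v : ι → ℝ}
    (hd : ∀ i ∈ s, 0 < d i) (h0 : ∑ i ∈ s, a i * d i = 0) (h1 : ∑ i ∈ s, a i * v i = 0)
    (h2 : ∑ i ∈ s, a i * (v i ^ 2 / d i) = 0)
    (hne : ∃ i ∈ s, a i ≠ 0) (hpos : (s.filter fun i => 0 < a i).card ≤ 1) :
    ∃ c : ℝ, ∀ i ∈ s, a i ≠ 0 → v i = c * d i := by
  classical
  rcases (s.filter fun i => 0 < a i).eq_empty_or_nonempty with hE | ⟨j, hj⟩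
  · exfalso
    have hle : ∀ i ∈ s, a i * d i ≤ 0 := fun i hi => mul_nonpos_of_nonpos_of_nonneg
      (not_lt.1 fun h => by
        have : i ∈ s.filter fun i => 0 < a i := Finset.mem_filter.2 ⟨hi, h⟩
        rw [hE] at this; simp at this) (hd i hi).le
    obtain ⟨i, hi, hai⟩ := hne
    exact hai (by simpa [(hd i hi).ne'] using (Finset.sum_eq_zero_iff_of_nonpos hle).1 h0 i hi)
  · refine ⟨v j / d j, fun i hi hai => ?_⟩
    have hjs := (Finset.mem_filter.1 hj).1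
    let g : ι → ℝ := fun k => a k * d k * (v k / d k - v j / d j) ^ 2
    have hg : ∑ k ∈ s, g k = 0 := by
      have e : ∀ k ∈ s, g k = a k * (v k ^ 2 / d k) - 2 * (v j / d j) * (a k * v k) +
          (v j / d j) ^ 2 * (a k * d k) := fun k hk => by
        have := (hd k hk).ne'
        simp only [g]; field_simp; ring
      rw [Finset.sum_congr rfl e, Finset.sum_add_distrib, Finset.sum_sub_distrib, ← Finset.mul_sum,
        ← Finset.mul_sum, h0, h1, h2]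
      ring
    have hle : ∀ k ∈ s, g k ≤ 0 := fun k hk => by
      by_cases hk' : 0 < a k
      · have : k = j := Finset.card_le_one.1 hpos k (Finset.mem_filter.2 ⟨hk, hk'⟩) j hj
        simp [g, this]
      · exact mul_nonpos_of_nonpos_of_nonneg
          (mul_nonpos_of_nonpos_of_nonneg (not_lt.1 hk') (hd k hk).le) (sq_nonneg _)
    have := (Finset.sum_eq_zero_iff_of_nonpos hle).1 hg i hi
    have hd' := (hd i hi).ne'
    simp [g, hai, hd'] at this
    field_simp at this ⊢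
    linarith

theorem columns_of_block_orthogonality {G : Type*} [Group G] [Finite G] (M : Ideal Cfsg.AlgInt)
    (h925 : ∀ (ϑ : G → ℂ), Cfsg.IsClassFunction G ϑ → ∀ x : G, (∃ k : ℕ, orderOf x = 2 ^ k) →
      (∀ u z : G, Cfsg.IsPPart 2 u z → IsConj x z → ϑ u = 0) →
      ∀ B : Set (Cfsg.IrrCharacter G), Cfsg.IsPBlock M B →
      ∀ u z : G, Cfsg.IsPPart 2 u z → IsConj x z → Cfsg.blockPart B ϑ u = 0) (hM : Cfsg.IsPModular 2 M) (P : Subgroup G) (hP : IsPGroup 2 P) (U : Set G) (hUP : U ⊆ (P : Set G)) (t : G) (ht : orderOf t = 2) (hinv : ∀ u ∈ U, ∀ g : G, (g * t * g⁻¹) * u * (g * t * g⁻¹)⁻¹ ≠ u⁻¹) (θ : ↥P → ℂ) (hθ : Cfsg.IsGeneralizedCharacter ↥P θ) (hθU : ∀ y : ↥P, (y : G) ∉ U → θ y = 0) : (∑ᶠ χ ∈ Cfsg.principalBlock M G, ((Nat.card ↥P : ℂ)⁻¹ * ∑ᶠ y : ↥P, (χ : G → ℂ) (y : G) * θ y⁻¹) * (χ : G → ℂ) t ^ 2 / (χ : G → ℂ) 1 = 0) ∧ (∑ᶠ χ ∈ Cfsg.principalBlock M G, ((Nat.card ↥P : ℂ)⁻¹ * ∑ᶠ y : ↥P, (χ : G → ℂ) (y :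 G) * θ y⁻¹) * (χ : G → ℂ) 1 = 0) ∧ (∑ᶠ χ ∈ Cfsg.principalBlock M G, ((Nat.card ↥P : ℂ)⁻¹ * ∑ᶠ y : ↥P, (χ : G → ℂ) (y : G) * θ y⁻¹) * (χ : G → ℂ) t = 0) ∧ ((Nat.card ↥P : ℂ)⁻¹ * ∑ᶠ y : ↥P, θ y ≠ 0 → (2 ≤ Nat.card {χ : Cfsg.IrrCharacter G // χ ∈ Cfsg.principalBlock M G ∧ 0 < (((Nat.card ↥P : ℂ)⁻¹ * ∑ᶠ y : ↥P, (χ : G → ℂ) (y : G) * θ y⁻¹)).re} ∧ 2 ≤ Nat.card {χ : Cfsg.IrrCharacter G // χ ∈ Cfsg.principalBlock M G ∧ (((Nat.card ↥P : ℂ)⁻¹ * ∑ᶠ y : ↥P, (χ : G → ℂ) (y : G) * θ y⁻¹)).re < 0}) ∨ ∃ K : Subgroup G, K.Normal ∧ K ≠ ⊤ ∧ Cfsg.pPrimeCore 2 G ≤ K ∧ t ∈ K) := by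
  classical
  haveI : Fact (Nat.Prime 2) := ⟨Nat.prime_two⟩
  haveI : M.IsMaximal := hM.2.1
  haveI := Fintype.ofFinite G
  have htt : t * t = 1 := by rw [← pow_two, ← ht, pow_orderOf_eq_one]
  have hB : Cfsg.IsPBlock M (Cfsg.principalBlock M G) := H41.isPBlock_principalBlock
  -- the elements of the section of an element of `U` avoid `1`, `t` and products of two conjugates
  have hU : ∀ y : P, θ y⁻¹ ≠ 0 → ∀ g z : G, Cfsg.IsPPart 2 g z → IsConj (y : G) z →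
      g ≠ 1 ∧ ¬ IsConj g t ∧ ∀ s : G, IsConj t s → ¬ s * g * s⁻¹ = g⁻¹ := by
    intro y hy g z hz hyz
    have hyU : ((y : G))⁻¹ ∈ U := by
      by_contra h
      exact hy (hθU y⁻¹ (by simpa using h))
    have key : ∀ s : G, IsConj t s → s * (y : G) * s⁻¹ ≠ (y : G)⁻¹ := by
      intro s hs h
      obtain ⟨k, rfl⟩ := isConj_iff.1 hs
      apply hinv _ hyU k
      have := congrArg (·⁻¹) h
      simpa [mul_assoc] using this
    have inv_part : ∀ {a b : G}, Cfsg.IsPPart 2 a b → Cfsg.IsPPart 2 a⁻¹ b⁻¹ := by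
      rintro a b ⟨c, hbc, hcomm, ⟨j, hj⟩, hc⟩
      exact ⟨c⁻¹, by rw [← hbc, hcomm.eq, mul_inv_rev], hcomm.inv_inv, ⟨j, by rwa [orderOf_inv]⟩,
        by rwa [orderOf_inv]⟩
    have hsec : ∀ s : G, IsConj t s → ¬ s * g * s⁻¹ = g⁻¹ := by
      intro s hs h
      have h1 : s * z * s⁻¹ = z⁻¹ :=
        H40.isPPart_unique (h ▸ H40.isPPart_conj s hz) (inv_part hz)
      obtain ⟨k, hk⟩ := isConj_iff.1 hyz
      refine key (k⁻¹ * s * k) (hs.trans (isConj_iff.2 ⟨k⁻¹, by group⟩)) ?_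
      have hy' : (y : G) = k⁻¹ * z * k := by rw [← hk]; group
      rw [hy', show k⁻¹ * s * k * (k⁻¹ * z * k) * (k⁻¹ * s * k)⁻¹ = k⁻¹ * (s * z * s⁻¹) * k by group,
        h1]
      group
    refine ⟨fun h => hsec t (IsConj.refl t) (by simp [h]), fun h => ?_, hsec⟩
    refine hsec g h.symm ?_
    obtain ⟨k, hk⟩ := isConj_iff.1 h.symm
    have hgg : g * g = 1 := by
      rw [← hk, show k * t * k⁻¹ * (k * t * k⁻¹) = k * (t * t) * k⁻¹ by group, htt]; group
    rw [mul_inv_cancel_right]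
    exact (inv_eq_of_mul_eq_one_right hgg).symm
  -- three column functions vanish on these sections
  have hvan : ∀ w : Cfsg.IrrCharacter G → ℂ,
      (∀ y : P, θ y⁻¹ ≠ 0 → ∀ g z : G, Cfsg.IsPPart 2 g z → IsConj (y : G) z →
        ∑ χ : Cfsg.IrrCharacter G, w χ * (χ : G → ℂ) g = 0) →
      ∑ᶠ χ ∈ Cfsg.principalBlock M G,
        ((Nat.card P : ℂ)⁻¹ * ∑ᶠ y : P, (χ : G → ℂ) (y : G) * θ y⁻¹) * w χ = 0 := by
    intro w hw
    rw [finsum_mem_eq_finite_toFinset_sum _ (Set.toFinite _)]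
    haveI := Fintype.ofFinite P
    simp only [finsum_eq_sum_of_fintype, Finset.mul_sum, Finset.sum_mul]
    rw [Finset.sum_comm]
    refine Finset.sum_eq_zero fun y _ => ?_
    by_cases hy : θ y⁻¹ = 0
    · simp [hy]
    have hcl : Cfsg.IsClassFunction G fun g => ∑ χ : Cfsg.IrrCharacter G, w χ * (χ : G → ℂ) g := fun g h => by
      simp only [H26.irr_conj]
    obtain ⟨k, hk⟩ := IsPGroup.iff_orderOf.1 hP y
    rw [← Subgroup.orderOf_coe] at hk
    have hyy : Cfsg.IsPPart 2 (y : G) (y : G) :=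
      ⟨1, mul_one _, Commute.one_right _, ⟨k, hk⟩, by simp⟩
    have h0 := h925 _ hcl (y : G) ⟨k, hk⟩ (hw y hy) _ hB _ _ hyy (IsConj.refl _)
    rw [Cfsg.blockPart, finsum_mem_eq_finite_toFinset_sum _ (Set.toFinite _)] at h0
    have hin : ∀ χ : Cfsg.IrrCharacter G,
        @Cfsg.classInner G _ (Fintype.ofFinite G) (fun g => ∑ ψ : Cfsg.IrrCharacter G, w ψ * (ψ : G → ℂ) g) (χ : G → ℂ) = w χ := by
      intro χ
      have := H26.classInner_sum_smul_irr (G := G) w χ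
      rw [← this, Subsingleton.elim (Fintype.ofFinite G)]
      congr 1
      ext g; simp [Finset.sum_apply]
    simp only [hin] at h0
    rw [Finset.sum_congr rfl fun (χ : Cfsg.IrrCharacter G) _ => show (Nat.card P : ℂ)⁻¹ * ((χ : G → ℂ) (y : G) * θ y⁻¹) * w χ
      = ((Nat.card P : ℂ)⁻¹ * θ y⁻¹) * (w χ * (χ : G → ℂ) (y : G)) by ring, ← Finset.mul_sum, h0,
      mul_zero]
  have treal : ∀ χ : Cfsg.IrrCharacter G, conj ((χ : G → ℂ) t) = (χ : G → ℂ) t := fun χ => by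
    rw [← H26.irr_inv, inv_eq_of_mul_eq_one_right htt]
  have s1 := hvan (fun χ : Cfsg.IrrCharacter G => (χ : G → ℂ) t ^ 2 / (χ : G → ℂ) 1) fun y hy g z hz hyz => by
    obtain ⟨-, -, hs⟩ := hU y hy g z hz hyz
    have hidx : ((Subgroup.centralizer ({t} : Set G)).index : ℂ) ≠ 0 :=
      Nat.cast_ne_zero.2 Subgroup.index_ne_zero_of_finite
    refine (mul_eq_zero.1 ?_).resolve_left hidx
    rw [Finset.mul_sum, Finset.sum_congr rfl fun (χ : Cfsg.IrrCharacter G) _ => show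
      ((Subgroup.centralizer ({t} : Set G)).index : ℂ) * ((χ : G → ℂ) t ^ 2 / (χ : G → ℂ) 1 * (χ : G → ℂ) g)
        = (∑ x ∈ Finset.univ.filter (IsConj t), (χ : G → ℂ) (x * g)) * conj ((χ : G → ℂ) t) by
      rw [H40.sum_class_irr_mul, treal, Cfsg.centralChar]; ring]
    simp only [Finset.sum_mul]
    rw [Finset.sum_comm]
    refine Finset.sum_eq_zero fun x hx => ?_
    rw [H26.column_orthogonality, H26.classIndicator, if_neg, mul_zero]
    intro h
    have hx' : IsConj t x := (Finset.mem_filter.1 hx).2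
    apply hs x hx'
    obtain ⟨k, hk⟩ := isConj_iff.1 h.symm
    obtain ⟨l, hl⟩ := isConj_iff.1 hx'
    have hxx : x * x = 1 := by
      rw [← hl, show l * t * l⁻¹ * (l * t * l⁻¹) = l * (t * t) * l⁻¹ by group, htt]; group
    have h2 : x * g * (x * g) = 1 := by
      rw [← hk, show k * t * k⁻¹ * (k * t * k⁻¹) = k * (t * t) * k⁻¹ by group, htt]; group
    rw [inv_eq_of_mul_eq_one_right hxx]
    refine (inv_eq_of_mul_eq_one_left ?_).symm
    rw [← h2]; group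
  have s2 := hvan (fun χ : Cfsg.IrrCharacter G => (χ : G → ℂ) 1) fun y hy g z hz hyz => by
    obtain ⟨h1, -, -⟩ := hU y hy g z hz hyz
    have := H26.column_orthogonality (G := G) g 1
    rw [H26.classIndicator, if_neg (fun h => h1 (isConj_one_left.1 h)), mul_zero] at this
    refine Eq.trans (Finset.sum_congr rfl fun χ _ => ?_) this
    rw [← H26.irr_inv, inv_one, mul_comm]
  have s3 := hvan (fun χ : Cfsg.IrrCharacter G => (χ : G → ℂ) t) fun y hy g z hz hyz => by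
    obtain ⟨-, h1, -⟩ := hU y hy g z hz hyz
    have := H26.column_orthogonality (G := G) g t
    rw [H26.classIndicator, if_neg h1, mul_zero] at this
    refine Eq.trans (Finset.sum_congr rfl fun χ _ => ?_) this
    rw [treal, mul_comm]
  refine ⟨?_, s2, s3, fun hne => ?_⟩
  · simpa only [mul_div_assoc] using s1
  -- the coefficients are integers
  set a : Cfsg.IrrCharacter G → ℂ := fun χ =>
    (Nat.card P : ℂ)⁻¹ * ∑ᶠ y : P, (χ : G → ℂ) (y : G) * θ y⁻¹ with ha_def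
  have ha : ∀ χ, ∃ n : ℤ, a χ = n := by
    intro χ
    haveI := Fintype.ofFinite P
    obtain ⟨α, β, hα, hβ, rfl⟩ := hθ
    have hres := H26.isCharacter_comp (H26.irr_isCharacter χ) P.subtype
    have hnat : ∀ γ : P → ℂ, Cfsg.IsCharacter P γ →
        ∃ n : ℕ, Cfsg.classInner ((χ : G → ℂ) ∘ P.subtype) γ = n := by
      intro γ hγ
      obtain ⟨n, ρ, e⟩ := hres
      obtain ⟨m, σ, e'⟩ := hγ
      exact ⟨_, by rw [← e, ← e']; exact H26.classInner_char_eq_finrank σ ρ⟩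
    obtain ⟨m, hm⟩ := hnat α hα
    obtain ⟨l, hl⟩ := hnat β hβ
    refine ⟨(m : ℤ) - l, ?_⟩
    push_cast
    rw [← hm, ← hl, Cfsg.classInner, Cfsg.classInner, ← mul_sub, ← Finset.sum_sub_distrib]
    simp only [a, finsum_eq_sum_of_fintype]
    congr 1
    refine Finset.sum_congr rfl fun y _ => ?_
    rw [Pi.sub_apply, H26.inv_eq_conj_of_isCharacter hα, H26.inv_eq_conj_of_isCharacter hβ]
    simp only [Function.comp_apply, Subgroup.coe_subtype]
    ring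
  choose n hn using ha
  have hare : ∀ χ, (a χ).re = (n χ : ℝ) := fun χ => by rw [hn χ]; simp
  by_contra hcon
  rw [not_or] at hcon
  obtain ⟨hcnt, hK⟩ := hcon
  set s := (Cfsg.principalBlock M G).toFinite.toFinset
  have hs : ∀ χ, χ ∈ s ↔ χ ∈ Cfsg.principalBlock M G := fun χ => Set.Finite.mem_toFinset _
  set d : Cfsg.IrrCharacter G → ℝ := fun χ => (Cfsg.charDegree (χ : G → ℂ) : ℝ)
  set v : Cfsg.IrrCharacter G → ℝ := fun χ => ((χ : G → ℂ) t).re
  have hv : ∀ χ : Cfsg.IrrCharacter G, (χ : G → ℂ) t = (v χ : ℂ) := fun χ => ((Complex.conj_eq_iff_re.1 (treal χ))).symm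
  have hd1 : ∀ χ : Cfsg.IrrCharacter G, (χ : G → ℂ) 1 = (d χ : ℂ) := fun χ => by rw [H42.irr_one_eq]; norm_num [d]
  have hd : ∀ χ : Cfsg.IrrCharacter G, 0 < d χ := fun χ => Nat.cast_pos.2 (H42.charDegree_pos χ)
  rw [finsum_mem_eq_finite_toFinset_sum _ (Set.toFinite _)] at s1 s2 s3
  change ∑ χ ∈ s, a χ * _ = 0 at s1
  change ∑ χ ∈ s, a χ * _ = 0 at s2
  change ∑ χ ∈ s, a χ * _ = 0 at s3
  simp only [hn, hd1, hv] at s1 s2 s3
  have r0 : ∑ χ ∈ s, (n χ : ℝ) * d χ = 0 := by exact_mod_cast s2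
  have r1 : ∑ χ ∈ s, (n χ : ℝ) * v χ = 0 := by exact_mod_cast s3
  have r2 : ∑ χ ∈ s, (n χ : ℝ) * (v χ ^ 2 / d χ) = 0 := by exact_mod_cast s1
  -- the trivial character occurs
  have h1mem : H26.oneIrr G ∈ Cfsg.principalBlock M G := by
    rw [H41.principalBlock_eq]; exact H41.mem_blockOf_self _
  have hn1 : (n (H26.oneIrr G) : ℝ) ≠ 0 := by
    intro h
    apply hne
    have h' : a (H26.oneIrr G) = 0 := by rw [hn]; exact_mod_cast h
    rw [← h']
    simp only [a, H26.oneIrr_val, one_mul]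
    congr 1
    exact (finsum_comp_equiv (Equiv.inv P)).symm
  have hnz : ∃ χ ∈ s, (n χ : ℝ) ≠ 0 := ⟨_, (hs _).2 h1mem, hn1⟩
  obtain ⟨c, hc⟩ : ∃ c : ℝ, ∀ χ ∈ s, (n χ : ℝ) ≠ 0 → v χ = c * d χ := by
    have key : ∀ q : Cfsg.IrrCharacter G → Prop, [DecidablePred q] →
        Nat.card {χ : Cfsg.IrrCharacter G // χ ∈ Cfsg.principalBlock M G ∧ q χ} =
          (s.filter q).card := by
      intro q _
      rw [Nat.card_eq_fintype_card, Fintype.card_subtype]
      congr 1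
      ext χ
      simp [hs]
    simp only [a] at hare
    simp only [hare, key] at hcnt
    rw [not_and_or, not_le, not_le] at hcnt
    rcases hcnt with h | h
    · exact proportional_of_one_pos (fun χ _ => hd χ) r0 r1 r2 hnz (by convert Nat.le_of_lt_succ h using 2)
    · obtain ⟨c, hc⟩ := proportional_of_one_pos (a := fun χ => -(n χ : ℝ)) (fun χ _ => hd χ)
        (by simpa [neg_mul, Finset.sum_neg_distrib] using r0)
        (by simpa [neg_mul, Finset.sum_neg_distrib] using r1)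
        (by simpa [neg_mul, Finset.sum_neg_distrib] using r2)
        (hnz.imp fun χ h => ⟨h.1, neg_ne_zero.2 h.2⟩)
        (by simpa [neg_pos] using Nat.le_of_lt_succ h)
      exact ⟨c, fun χ hχ h => hc χ hχ (neg_ne_zero.2 h)⟩
  have hc1 : c = 1 := by
    have := hc _ ((hs _).2 h1mem) hn1
    have h1 : d (H26.oneIrr G) = 1 := by
      have := hd1 (H26.oneIrr G)
      rw [H26.oneIrr_val] at this
      exact_mod_cast this.symm
    simp only [v, H26.oneIrr_val, Complex.one_re, h1, mul_one] at this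
    exact this.symm
  obtain ⟨χ, hχ, hχn, hχ1⟩ : ∃ χ ∈ s, (n χ : ℝ) ≠ 0 ∧ χ ≠ H26.oneIrr G := by
    by_contra h
    apply mul_ne_zero hn1 (hd (H26.oneIrr G)).ne'
    refine Eq.trans (Finset.sum_eq_single (f := fun χ => (n χ : ℝ) * d χ) (H26.oneIrr G)
      (fun χ hχ hne' => ?_) (fun h' => absurd ((hs _).2 h1mem) h')).symm r0
    by_contra hmul
    exact h ⟨χ, hχ, (mul_ne_zero_iff.1 hmul).1, hne'⟩
  refine hK ⟨H44.kerOf χ, H44.kerOf_normal χ, fun htop => hχ1 ?_, fun x hx => ?_, ?_⟩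
  · have hconst : ∀ g, (χ : G → ℂ) g = (χ : G → ℂ) 1 := fun g =>
      H44.mem_kerOf.1 (htop ▸ Subgroup.mem_top g)
    have h := H26.classInner_irr χ (H26.oneIrr G)
    rw [Cfsg.classInner] at h
    simp only [hconst, H26.oneIrr_val, map_one, mul_one, Finset.sum_const, nsmul_eq_mul] at h
    by_contra hne'
    rw [if_neg hne', Finset.card_univ, ← Nat.card_eq_fintype_card, ← mul_assoc,
      inv_mul_cancel₀ (Nat.cast_ne_zero.2 Nat.card_pos.ne'), one_mul] at h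
    exact H26.irr_one_ne_zero χ h
  · haveI := H51.pPrimeCore_normal 2 G
    haveI := Fintype.ofFinite (Cfsg.pPrimeCore 2 G)
    exact H44.mem_kerOf.2 (H41.eq_one_of_sameBlock _ hM
      ((Nat.Prime.coprime_iff_not_dvd Nat.prime_two).1 (H51.pPrimeCore_coprime 2 G).symm)
      (H41.sameBlock_of_mem hB h1mem ((hs χ).1 hχ)) (fun _ _ => rfl) x hx)
  · refine H44.mem_kerOf.2 ?_
    rw [hv, hd1, hc χ hχ hχn, hc1, one_mul]

end Cfsg.Agent.H32
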