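import Cfsg.Agent.H56.SubsectionMajor
import Cfsg.Agent.H40.AbelianSubsections
import Cfsg.Agent.H40.Fong
import Cfsg.Agent.H42.StableBlock
import Cfsg.Agent.H43.LinearTwist

/-!
Stable blocks of normal subgroups of `p`-power index whose covering block has an abelian defect
group: restriction is a surjection with all fibres of size the index.
-/

set_option autoImplicit false

namespace Cfsg.Agent.H32

open Cfsg
open H43 (irrConj restrMult irrTwist)
open scoped ComplexConjugate

universe u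

variable {G : Type u} [Group G] [Fintype G] {p : ℕ} [hp : Fact p.Prime] {M : Ideal AlgInt}

/-- No member of a block with abelian defect group vanishes on the section of an element of the
defect group. -/
theorem exists_section_ne_zero (hM : IsPModular p M) {B : Set (IrrCharacter G)}
    (hB : IsPBlock M B) {P : Subgroup G} (hPD : IsDefectGroup p M B P)
    (hab : ∀ x ∈ P, ∀ y ∈ P, x * y = y * x) {u : G} (hu : u ∈ P) {χ : IrrCharacter G}
    (hχ : χ ∈ B) :
    ∃ c : G, ¬ p ∣ orderOf c ∧ (χ : G → ℂ) (u * c) ≠ 0 := by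
  classical
  haveI := hM.2.1
  haveI := H41.IsPModular.charP hM
  have hS := H22.split M G
  have hD := (H22.isDefectGroup_top_iff hM hB).1 hPD
  obtain ⟨f, hf, hfb⟩ := H22.exists_pair_below hS (H22.isBlockEl_elTop hB) hD.le hD.pGroup hD.ne_zero
  have hm := H22.isMaxEl_of_isDefEl hf hfb hD
  obtain ⟨b₁, hb₁⟩ := H40.exists_subAt hM hB hm hab hu
  obtain ⟨hind₁, hPC, hb₁D⟩ := H40.isInducedBlock_of_subAt hM hB hm hab hb₁
  have hd₁ : blockDefect p b₁ = blockDefect p B := by
    have h1 := H40.card_defectGroup hM hb₁.1 hb₁D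
    rw [Nat.card_congr (Subgroup.subgroupOfEquivOfLe hPC).toEquiv, H40.card_defectGroup hM hB hPD]
      at h1
    exact (Nat.pow_right_injective hp.out.two_le h1).symm
  have hy : ∃ k : ℕ, orderOf u = p ^ k := by
    obtain ⟨k, hk⟩ := IsPGroup.iff_orderOf.1 (H40.isPGroup_of_isDefectGroup hPD) ⟨u, hu⟩
    exact ⟨k, by rwa [Subgroup.orderOf_mk] at hk⟩
  have key : ∀ L : Subgroup G, L = Subgroup.centralizer ({u} : Set G) →
      ∃ b : Set (IrrCharacter L),
        IsInducedBlock M L b B ∧ blockDefect p b = blockDefect p B := by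
    intro L hL
    subst hL
    exact ⟨b₁, hind₁, hd₁⟩
  obtain ⟨b, hind, hbd⟩ := key (H56.Subsec.CZ u) (H40.centralizer_zpowers_eq u)
  obtain ⟨χ₀, hχ₀, h00⟩ := H41.exists_height_zero (p := p) (H41.IsPBlock.nonempty hB)
  have hne : H56.Subsec.bpart p u b χ ≠ 0 := by
    intro h0
    have hc : H56.Subsec.cont p u b χ₀ χ 1 = 0 := by
      rw [H56.Subsec.cont_one_eq hind.1]
      simp [h0]
    refine (H56.Subsec.res_redCont_eq_zero_iff hM hy hind hbd hχ₀ hχ).1 ?_ h00
    rw [show (⟨_, H41.isIntegral_mem_localRing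
      (H56.Subsec.isIntegral_redCont hM hy hind hbd χ₀ hχ)⟩ : H41.localRing M) = 0 from
      Subtype.ext (by simp [H56.Subsec.redCont, hc]), map_zero]
  obtain ⟨s, hs⟩ := Function.ne_iff.1 hne
  have hW := weakOrthogonal_of_isPBlock (C := H56.Subsec.CZ u) hM hind.1
  by_contra hno
  push Not at hno
  apply hs
  show Matrix.mulVec (projKernel p b) (H56.Subsec.theta u χ) s = 0
  simp only [Matrix.mulVec, dotProduct]
  refine Finset.sum_eq_zero fun t _ => ?_
  by_cases ht : IsPRegular p t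
  · rw [show H56.Subsec.theta u χ t = 0 from
      hno (t : G) (by rw [Subgroup.orderOf_coe]; exact ht), mul_zero]
  · rw [projKernel_eq_zero hW s ht, zero_mul]

variable {N : Subgroup G} [hNn : N.Normal] [Fintype N]

/-- The structure over a stable block with abelian defect group upstairs. -/
theorem stable_block_abelian_defect (hM : IsPModular p M) (hNi : ∃ k : ℕ, N.index = p ^ k)
    {b : Set (IrrCharacter N)} (hb : IsPBlock M b)
    (hstab : ∀ g : G, StabilizesBlock N b g) {B : Set (IrrCharacter G)} (hB : IsPBlock M B)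
    (hcov : ∃ χ ∈ B, ∃ θ ∈ b,
      classInner (fun n : N => (χ : G → ℂ) n) (θ : N → ℂ) ≠ 0)
    (P : Subgroup G) (hPD : IsDefectGroup p M B P) (hPab : ∀ x ∈ P, ∀ y ∈ P, x * y = y * x) :
    N ⊔ P = ⊤ ∧ IsDefectGroup p M b ((P ⊓ N).subgroupOf N) ∧
      (∀ χ ∈ B, ∃ θ ∈ b, ∀ n : N, (χ : G → ℂ) n = (θ : N → ℂ) n) ∧
      (∀ θ ∈ b, Nat.card {χ : IrrCharacter G // χ ∈ B ∧ ∀ n : N,
        (χ : G → ℂ) n = (θ : N → ℂ) n} = N.index) ∧
      Nat.card B = N.index * Nat.card b ∧ blockRank p B = blockRank p b := by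
  classical
  haveI := hM.2.1
  obtain ⟨k, hk⟩ := hNi
  have hst : ∀ x : G, ∀ θ ∈ b, irrConj N x θ ∈ b := by
    intro x θ hθ
    obtain ⟨θ', hθ', hc⟩ := (hstab x⁻¹).2 θ hθ
    convert hθ' using 1
    refine Subtype.ext (funext fun n => ?_)
    rw [H43.irrConj_apply]
    exact (hc (MulAut.conjNormal x n) n (by simp [mul_assoc])).symm
  obtain ⟨χ₁, hχ₁, θ₁, hθ₁, hne₁⟩ := hcov
  have hover : H42.overSet N b = B := by
    refine H41.block_eq_of_mem_of_mem (H42.isPBlock_overSet hM hk hb hst) hB (χ := χ₁) ?_ hχ₁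
    refine ⟨θ₁, hθ₁, fun h0 => hne₁ ?_⟩
    rw [H43.classInner_eq_mult (H43.isCharacter_restr N χ₁)]
    exact Nat.cast_eq_zero.2 h0
  have hdef : IsDefectGroup p M b ((P ⊓ N).subgroupOf N) := by
    refine H40.isDefectGroup_inf_of_invariant hM hb (fun g θ hθ => ?_) hB
      ⟨χ₁, hχ₁, θ₁, hθ₁, hne₁⟩ hPD
    convert hst g θ hθ using 1
    exact Subtype.ext (funext fun n => rfl)
  have hsup : N ⊔ P = ⊤ := by
    have h1 := H40.card_defectGroup hM hb hdef
    rw [Nat.card_congr (Subgroup.subgroupOfEquivOfLe inf_le_right).toEquiv] at h1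
    have h2 := H40.card_defectGroup hM hB hPD
    rw [← hover, H42.blockDefect_overSet hM hk hb hst, pow_add] at h2
    have h3 : N.relIndex P = p ^ k := by
      have h4 := Subgroup.relIndex_mul_index (H := (P ⊓ N)) (K := P) inf_le_left
      have h5 := (P ⊓ N).card_mul_index
      have h6 := P.card_mul_index
      rw [← h4, h1] at h5
      rw [h2] at h6
      rw [← Subgroup.inf_relIndex_right, inf_comm]
      refine Nat.eq_of_mul_eq_mul_left (pow_pos hp.out.pos (blockDefect p b)) ?_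
      refine Nat.eq_of_mul_eq_mul_right (Nat.pos_of_ne_zero P.index_ne_zero_of_finite) ?_
      rw [mul_assoc, h5, h6]
    have h7 : N.relIndex (N ⊔ P) = p ^ k := by rw [sup_comm, Subgroup.relIndex_sup_right, h3]
    have h8 := Subgroup.relIndex_mul_index (H := N) (K := N ⊔ P) le_sup_left
    rw [h7, hk] at h8
    exact Subgroup.index_eq_one.1
      (Nat.eq_of_mul_eq_mul_left (pow_pos hp.out.pos k) (h8.trans (mul_one _).symm))
  -- the quotient is abelian
  have hlift : ∀ q : G ⧸ N, ∃ u ∈ P, (u : G ⧸ N) = q := by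
    intro q
    obtain ⟨g, rfl⟩ := QuotientGroup.mk_surjective q
    obtain ⟨n, hn, u, hu, rfl⟩ := Subgroup.mem_sup_of_normal_left.1 (hsup.symm ▸ Subgroup.mem_top g)
    exact ⟨u, hu, by rw [QuotientGroup.mk_mul, (QuotientGroup.eq_one_iff n).2 hn, one_mul]⟩
  have hQab : ∀ a c : G ⧸ N, a * c = c * a := by
    intro a c
    obtain ⟨u, hu, rfl⟩ := hlift a
    obtain ⟨v, hv, rfl⟩ := hlift c
    rw [← QuotientGroup.mk_mul, ← QuotientGroup.mk_mul, hPab u hu v hv]
  haveI : Fintype (G ⧸ N) := Fintype.ofFinite _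
  choose lam hlam using fun ψ : IrrCharacter (G ⧸ N) =>
    H26.exists_hom_of_isCharacter_one (H26.irr_isCharacter ψ) (H26.irr_one_eq_one_of_comm hQab ψ)
  let tw : IrrCharacter (G ⧸ N) → IrrCharacter G → IrrCharacter G := fun ψ χ =>
    irrTwist χ ((lam ψ).comp (QuotientGroup.mk' N))
  have htw : ∀ ψ χ g, (tw ψ χ).1 g = χ.1 g * ψ.1 (g : G ⧸ N) := fun ψ χ g => by
    show χ.1 g * (lam ψ (g : G ⧸ N) : ℂ) = _
    rw [hlam]
  have hreg : ∀ q : G ⧸ N, ∑ ψ : IrrCharacter (G ⧸ N), ψ.1 q =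
      if q = 1 then (N.index : ℂ) else 0 := by
    intro q
    have h := congrFun (H26.char_leftRegular_eq_sum (G := G ⧸ N)) q
    rw [H26.char_leftRegular, Finset.sum_apply] at h
    simp only [Pi.smul_apply, smul_eq_mul, H26.irr_one_eq_one_of_comm hQab, one_mul] at h
    rw [← h, Subgroup.index_eq_card]
  have hcardQ : Nat.card (IrrCharacter (G ⧸ N)) = N.index := by
    have h := hreg 1
    simp only [H26.irr_one_eq_one_of_comm hQab, Finset.sum_const, Finset.card_univ, if_pos rfl,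
      nsmul_eq_mul, mul_one] at h
    rw [Nat.card_eq_fintype_card]
    exact_mod_cast h
  -- members of `B` are moved by every twist
  have hfix : ∀ χ ∈ B, ∀ ψ ψ' : IrrCharacter (G ⧸ N), tw ψ χ = tw ψ' χ → ψ = ψ' := by
    intro χ hχ ψ ψ' h
    refine Subtype.ext (funext fun q => ?_)
    obtain ⟨u, hu, rfl⟩ := hlift q
    obtain ⟨c, hc, hne⟩ := exists_section_ne_zero hM hB hPD hPab hu hχ
    have hq : ((u * c : G) : G ⧸ N) = (u : G ⧸ N) := by
      rw [QuotientGroup.mk_mul, (QuotientGroup.eq_one_iff c).2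
        (H42.mem_of_regular_of_index hk hc), mul_one]
    have := congrFun (congrArg Subtype.val h) (u * c)
    rw [htw, htw, hq] at this
    exact mul_left_cancel₀ hne this
  -- restrictions are irreducible
  have hres : ∀ χ ∈ B, ∃ θ ∈ b, ∀ n : N, (χ : G → ℂ) n = (θ : N → ℂ) n := by
    intro χ hχ
    have hnorm : classInner (fun n : N => χ.1 n) (fun n : N => χ.1 n) = 1 := by
      let one : IrrCharacter (G ⧸ N) := H26.oneIrr _
      have hone : tw one χ = χ := Subtype.ext (funext fun g => by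
        rw [htw, H26.oneIrr_val, mul_one])
      have h1 : ∑ ψ : IrrCharacter (G ⧸ N), classInner (tw ψ χ).1 χ.1 = 1 := by
        rw [Finset.sum_eq_single one, hone, H26.classInner_irr, if_pos rfl]
        · intro ψ _ hψ
          rw [H26.classInner_irr, if_neg fun e => hψ (hfix χ hχ ψ one (e.trans hone.symm))]
        · exact fun h => absurd (Finset.mem_univ _) h
      rw [← h1]
      simp only [classInner, htw]
      rw [← Finset.mul_sum, Finset.sum_comm]
      have h2 : ∀ g : G, ∑ ψ : IrrCharacter (G ⧸ N), χ.1 g * ψ.1 (g : G ⧸ N) * conj (χ.1 g) =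
          if g ∈ N then (N.index : ℂ) * (χ.1 g * conj (χ.1 g)) else 0 := by
        intro g
        rw [← Finset.sum_mul, ← Finset.mul_sum, hreg]
        simp only [QuotientGroup.eq_one_iff]
        split_ifs <;> ring
      simp only [h2, ← Finset.sum_filter]
      rw [Finset.sum_subtype (F := (inferInstance : Fintype N)) _ (p := fun g : G => g ∈ N)
        (by simp) _, ← Finset.mul_sum, ← N.card_mul_index, ← mul_assoc]
      push_cast
      congr 1
      have : (N.index : ℂ) ≠ 0 := Nat.cast_ne_zero.2 N.index_ne_zero_of_finite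
      field_simp
    set θ : IrrCharacter N :=
      ⟨_, H26.isIrrCharacter_of_norm_one (H43.isCharacter_restr N χ) hnorm⟩
    refine ⟨θ, H42.mem_of_restrMult_ne_zero hst (hover.symm ▸ hχ) ?_, fun n => rfl⟩
    rw [restrMult, H43.mult_eq_of_classInner (m := 1) (by rw [Nat.cast_one]; exact hnorm)]
    exact one_ne_zero
  have hmem : ∀ χ : IrrCharacter G, ∀ θ ∈ b, restrMult N χ θ ≠ 0 → χ ∈ B := fun χ θ hθ h =>
    hover ▸ ⟨θ, hθ, h⟩
  have hrm : ∀ (χ : IrrCharacter G) (θ : IrrCharacter N), (∀ n : N, χ.1 n = θ.1 n) →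
      ∀ θ' : IrrCharacter N, restrMult N χ θ' ≠ 0 ↔ θ = θ' := by
    intro χ θ h θ'
    have e : restrMult N χ θ' = if θ = θ' then 1 else 0 := by
      refine H43.mult_eq_of_classInner ?_
      rw [show (fun n : N => χ.1 n) = θ.1 from funext h, H26.classInner_irr]
      split_ifs <;> simp
    rw [e]; split_ifs with h' <;> simp [h']
  have hfib : ∀ θ ∈ b, Nat.card {χ : IrrCharacter G // χ ∈ B ∧ ∀ n : N,
      (χ : G → ℂ) n = (θ : N → ℂ) n} = N.index := by
    intro θ hθ
    obtain ⟨χ₀, hχ₀⟩ := H43.exists_above N θ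
    have hχ₀B := hmem χ₀ θ hθ hχ₀
    obtain ⟨θ', -, hθ'⟩ := hres χ₀ hχ₀B
    obtain rfl : θ' = θ := (hrm χ₀ θ' hθ' θ).1 hχ₀
    rw [← hcardQ]
    have hN : ∀ ψ : IrrCharacter (G ⧸ N), ∀ n : N, (tw ψ χ₀).1 n = θ'.1 n := fun ψ n => by
      rw [htw, hθ', (QuotientGroup.eq_one_iff (n : G)).2 n.2,
        H26.irr_one_eq_one_of_comm hQab, mul_one]
    refine (Nat.card_congr (Equiv.ofBijective (fun ψ : IrrCharacter (G ⧸ N) =>
      (⟨tw ψ χ₀, hmem _ θ' hθ ((hrm _ θ' (hN ψ) θ').2 rfl), hN ψ⟩ :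
        {χ : IrrCharacter G // χ ∈ B ∧ ∀ n : N, (χ : G → ℂ) n = (θ' : N → ℂ) n}))
      ⟨fun ψ ψ' h => hfix χ₀ hχ₀B ψ ψ' (congrArg Subtype.val h), ?_⟩)).symm
    rintro ⟨χ, -, hχ⟩
    obtain ⟨f, hf, rfl⟩ := H43.exists_hom_of_restrict_eq N χ₀ χ θ' hθ' hχ
    refine ⟨⟨_, H26.isIrrCharacter_hom (QuotientGroup.lift N f hf)⟩, Subtype.ext (Subtype.ext
      (funext fun g => ?_))⟩
    rw [htw, H43.irrTwist_apply]
    rfl
  refine ⟨hsup, hdef, hres, hfib, ?_, ?_⟩
  · -- count by the restriction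
    choose res hres1 hres2 using hres
    let r : B → b := fun χ => ⟨res χ.1 χ.2, hres1 _ _⟩
    haveI : Fintype b := Fintype.ofFinite _
    rw [← Nat.card_congr (Equiv.sigmaFiberEquiv r), Nat.card_sigma]
    rw [Finset.sum_congr rfl fun θ _ => ?_, Finset.sum_const, Finset.card_univ, smul_eq_mul,
      ← Nat.card_eq_fintype_card, mul_comm]
    rw [← hfib θ.1 θ.2]
    refine Nat.card_congr
      { toFun := fun χ => ⟨χ.1.1, χ.1.2, by
          rw [← show res χ.1.1 χ.1.2 = θ.1 from congrArg Subtype.val χ.2]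
          exact hres2 _ _⟩
        invFun := fun χ => ⟨⟨χ.1, χ.2.1⟩, Subtype.ext (Subtype.ext (funext fun n => by
          rw [← hres2 χ.1 χ.2.1 n]; exact χ.2.2 n))⟩
        left_inv := fun χ => rfl
        right_inv := fun χ => rfl }
  · let L : (N → ℂ) →ₗ[ℂ] (G → ℂ) :=
      { toFun := fun f g => if h : g ∈ N then f ⟨g, h⟩ else 0
        map_add' := fun f f' => by ext g; by_cases h : g ∈ N <;> simp [h]
        map_smul' := fun c f => by ext g; by_cases h : g ∈ N <;> simp [h] }
    have hL : Function.Injective L := fun f f' h => funext fun n => by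
      have := congrFun h (n : G)
      simpa [L] using this
    have hLχ : ∀ (χ : IrrCharacter G) (θ : IrrCharacter N), (∀ n : N, χ.1 n = θ.1 n) →
        pRegularPart p χ.1 = L (pRegularPart p θ.1) := by
      intro χ θ h
      ext g
      by_cases hg : g ∈ N
      · simp only [L, LinearMap.coe_mk, AddHom.coe_mk, dif_pos hg, pRegularPart, IsPRegular,
          Subgroup.orderOf_mk, ← h ⟨g, hg⟩]
        by_cases hh : p ∣ orderOf g <;> simp [hh]
      · simp only [L, LinearMap.coe_mk, AddHom.coe_mk, dif_neg hg, pRegularPart, IsPRegular]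
        by_cases hh : p ∣ orderOf g
        · simp [hh]
        · exact absurd (H42.mem_of_regular_of_index hk hh) hg
    have himg : (fun χ : IrrCharacter G => pRegularPart p χ.1) '' B =
        L '' ((fun θ : IrrCharacter N => pRegularPart p θ.1) '' b) := by
      ext F
      constructor
      · rintro ⟨χ, hχ, rfl⟩
        obtain ⟨θ, hθ, h⟩ := hres χ hχ
        exact ⟨_, ⟨θ, hθ, rfl⟩, (hLχ χ θ h).symm⟩
      · rintro ⟨_, ⟨θ, hθ, rfl⟩, rfl⟩
        obtain ⟨χ, hχ⟩ := H43.exists_above N θ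
        obtain ⟨θ', -, h⟩ := hres χ (hmem χ θ hθ hχ)
        obtain rfl : θ' = θ := (hrm χ θ' h θ).1 hχ
        exact ⟨χ, hmem χ θ' hθ hχ, hLχ χ θ' h⟩
    rw [blockRank, blockRank, himg, ← Submodule.map_span]
    exact (Submodule.equivMapOfInjective L hL _).finrank_eq.symm

end Cfsg.Agent.H32
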